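/-
Presentations for subgroups generated by all letters but one.
-/
import Cfsg.Agent.H63.Pres2

set_option autoImplicit false

namespace Cfsg.Agent.H63

open H58 (RuleOK ivf allLt clL)

theorem rule_iv {G : Type*} [Group G] {e : ℕ → G} {rels : List (List ℕ)} {iv iv' : ℕ} (R : RuleOK e rels iv)
    (h : ∀ x < 64, ivf iv' x = ivf iv x ∨ (ivf iv x = 0 ∧ ivf iv' x = x)) : RuleOK e rels iv' :=
  ⟨R.h0, fun x hx => (h x hx).elim (fun a => a ▸ R.hinv x hx) fun a => by
    have := R.hinv x hx
    rw [a.1, R.h0, eq_comm, inv_eq_one] at this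
    rw [a.2, this, inv_one], R.hrel, R.hlt⟩

theorem rule_kill {G : Type*} [Group G] {e : ℕ → G} {rels rels' : List (List ℕ)} {iv : ℕ} (R : RuleOK e rels iv) (a : ℕ)
    (h : (allLt rels' && ((List.range 64).all fun x => decide (ivf iv x = a ↔ x = a)) &&
      rels'.all fun r => r == [a] || (!r.contains a && rels.contains r)) = true) :
    RuleOK (fun x => if x = a then 1 else e x) rels' iv := by
  simp only [Bool.and_eq_true, decide_eq_true_iff, List.all_eq_true, Bool.or_eq_true, beq_iff_eq,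
    List.contains_iff_mem, Bool.not_eq_true', ← Bool.not_eq_true, List.mem_range] at h
  refine ⟨by simp [R.h0], fun x hx => ?_, fun r hr => ?_, h.1.1⟩
  · by_cases c : x = a
    · rw [if_pos c, if_pos ((h.1.2 x hx).2 c), inv_one]
    · rw [if_neg c, if_neg (mt (h.1.2 x hx).1 c), R.hinv x hx]
  · rcases h.2 r hr with rfl | ⟨h1, h2⟩
    · simp
    · rw [List.map_congr_left fun x hx => if_neg fun c : x = a => h1 (c ▸ hx)]
      exact R.hrel r h2

theorem univ_kill {G : Type} [Group G] {e : ℕ → G} {rels rels' : List (List ℕ)} {iv n N : ℕ} {gens : List ℕ}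
    (R : RuleOK e rels iv) (a : ℕ) (h : (allLt rels' && ((List.range 64).all fun x => decide (ivf iv x = a ↔ x = a)) &&
      rels'.all fun r => r == [a] || (!r.contains a && rels.contains r)) = true)
    (h1 : a ∉ gens ∧ [a] ∈ rels' ∧ ∀ x < n, x = 0 ∨ x = a ∨ x ∈ gens) (h2 : N ≤ Nat.card (clL e gens))
    (hb : ∀ (K : Type) [Group K] (e : ℕ → K), RuleOK e rels' iv →
      Finite (clL e gens) ∧ Nat.card (clL e gens) ≤ N) : Univ (clL e gens) rels' iv n := by
  have h3 : clL (fun x => if x = a then 1 else e x) gens = clL e gens :=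
    congrArg Subgroup.closure (Set.image_congr fun x hx => if_neg fun c : x = a => h1.1 (c ▸ hx))
  rw [← h3] at h2 ⊢
  refine univ_clL (rule_kill R a h) h2 fun K _ f Q => ⟨hb K f Q, fun x hx => ?_⟩
  rcases h1.2.2 x hx with rfl | rfl | c
  · exact Q.h0 ▸ Subgroup.one_mem _
  · rw [show f x = 1 by simpa using Q.hrel _ h1.2.1]; exact Subgroup.one_mem _
  · exact Subgroup.subset_closure ⟨x, c, rfl⟩

end Cfsg.Agent.H63
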