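/-
From a bound for the subgroup generated by the letters to a bound for the subgroup generated by all values.
-/
import Cfsg.Agent.H63.Pres3
import Cfsg.Agent.H58.Util3

set_option autoImplicit false

namespace Cfsg.Agent.H63

open H58 (clL)

theorem range_bound {K : Type*} [Group K] {e : ℕ → K} {n N : ℕ} {gens : List ℕ} (h0 : e 0 = 1)
    (hn : ∀ x, n ≤ x → e x = 1) (hg : ∀ x < n, x = 0 ∨ x ∈ gens) (h : Finite (clL e gens) ∧ Nat.card (clL e gens) ≤ N) :
    Finite (Subgroup.closure (Set.range e)) ∧ Nat.card (Subgroup.closure (Set.range e)) ≤ N := by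
  refine H58.card_mono ((Subgroup.closure_le _).2 ?_) h
  rintro _ ⟨x, rfl⟩
  rcases Nat.lt_or_ge x n with hx | hx
  · exact (hg x hx).elim (fun c => c ▸ h0 ▸ Subgroup.one_mem _) fun c => Subgroup.subset_closure ⟨x, c, rfl⟩
  · exact hn x hx ▸ Subgroup.one_mem _

end Cfsg.Agent.H63
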