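/-
Presentations for simple matrix groups.
-/
import Cfsg.Agent.H63.Pres4
import Cfsg.Agent.H63.Cls

set_option autoImplicit false

namespace Cfsg.Agent.H63

theorem equiv_quot_simple {G : Type*} [Group G] [IsSimpleGroup G] (h : ¬ (Nat.card G).Prime) :
    Nonempty (G ≃* G ⧸ Subgroup.center G) :=
  equiv_quot_center (Subgroup.card_eq_one.2 ((Subgroup.Normal.eq_bot_or_eq_top inferInstance).resolve_right fun c => by
    let : CommGroup G := { mul_comm := fun a b => Subgroup.mem_center_iff.1 (c ▸ trivial : b ∈ Subgroup.center G) a }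
    exact h IsSimpleGroup.prime_card))

theorem Univ.of_quot {G : Type*} [Group G] [IsSimpleGroup G] {rels : List (List ℕ)} {iv n o : ℕ}
    (ho : Nat.card G = o) (h : ¬ o.Prime)
    (H : Nat.card (G ⧸ Subgroup.center G) = o → Univ (G ⧸ Subgroup.center G) rels iv n) : Univ G rels iv n :=
  let ⟨e⟩ := equiv_quot_simple (ho ▸ h); (H ((Nat.card_congr e.toEquiv).symm.trans ho)).congr e.symm

end Cfsg.Agent.H63
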