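/-
Splitting of stem extensions by coset enumeration with central letters.
-/
import Cfsg.Agent.H63.Pres5
import Cfsg.Agent.H17.Pres

set_option autoImplicit false

namespace Cfsg.Agent.H63

open H58 (RuleOK ivf allLt wv elX subst cancel ruleAt clL)
open Function
open scoped commutatorElement

/-- lifts of the letters, with the relators known to hold exactly -/
structure Lf {Γ G : Type*} [Group Γ] [Group G] (σ : Γ →* G) (el : ℕ → G) (L : Subgroup Γ) (gK : List ℕ) (iv : ℕ)
    (e : ℕ → Γ) (rs : List (List ℕ)) : Prop where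
  cen : σ.ker ≤ Subgroup.center Γ
  inj : ∀ l ∈ L, σ l = 1 → l = 1
  rule : RuleOK e rs iv
  lift : ∀ x, σ (e x) = el x
  mem : ∀ x ∈ gK, e x ∈ L
  nrm : ∀ g, (∀ k ∈ clL el gK, σ g * k * (σ g)⁻¹ ∈ clL el gK) → ∀ l ∈ L, g * l * g⁻¹ ∈ L

/-- the word is a product of rules -/
def catOK (rG : List (List ℕ)) (iv : ℕ) (w : List ℕ) (wit : List (ℕ × ℕ)) : Bool :=
  allLt [w] && w == (wit.map fun p => ruleAt rG iv p.1 p.2).flatten

theorem allLt_iff {rs : List (List ℕ)} : allLt rs = true ↔ ∀ r ∈ rs, ∀ x ∈ r, x < 64 := by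
  simp only [allLt, List.all_eq_true, Nat.ble_eq, Nat.lt_succ_iff]

theorem wv_cat {G : Type*} [Group G] {el : ℕ → G} {rG : List (List ℕ)} {iv : ℕ} (R : RuleOK el rG iv) {w : List ℕ}
    {wit : List (ℕ × ℕ)} (h : catOK rG iv w wit = true) : wv el w = 1 := by
  simp only [catOK, Bool.and_eq_true, beq_iff_eq, allLt_iff, List.forall_mem_singleton] at h
  obtain ⟨h1, rfl⟩ := h
  rw [H58.wv_flatten]
  refine List.prod_eq_one fun y hy => ?_
  obtain ⟨r, h2, rfl⟩ := List.mem_map.1 hy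
  obtain ⟨p, -, h3⟩ := List.mem_map.1 h2
  have := H58.ruleAt_ok R p.1 p.2
  rwa [h3, H58.wval_enc _ _ fun x hx => h1 x (List.mem_flatten.2 ⟨r, h2, hx⟩)] at this

/-- the check for the first lift -/
def startOK (rG : List (List ℕ)) (iv : ℕ) (gK : List ℕ) (rs : List (List ℕ)) : Bool :=
  ((List.range 64).all fun x => gK.contains x || ivf iv x == 0 || (ivf iv (ivf iv x) == x && ivf iv x != x)) &&
    allLt rs && rs.all fun r => rG.contains r && r.all fun x => gK.contains x

theorem Lf.start {Γ G : Type} [Group Γ] [Group G] [Finite Γ] {σ : Γ →* G} (hσ : IsStemExtension σ) {el : ℕ → G}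
    {rG : List (List ℕ)} {iv : ℕ} (R : RuleOK el rG iv) {gK : List ℕ} {K : Subgroup G} (hK0 : clL el gK = K)
    (hp : commutator K = ⊤) (hU : UB K []) {rs : List (List ℕ)} (h : startOK rG iv gK rs = true) :
    ∃ L e, Lf σ el L gK iv e rs := by
  classical
  have hK : ∀ x ∈ gK, el x ∈ K := fun x hx => hK0 ▸ Subgroup.subset_closure ⟨x, hx, rfl⟩
  have a0 : ⁅K, K⁆ = K := by rw [← K.map_subtype_commutator, hp, ← MonoidHom.range_eq_map, K.range_subtype]
  have a1 : ⁅K.comap σ, K.comap σ⁆.map σ = K := by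
    rw [Subgroup.map_commutator, Subgroup.map_comap_eq_self_of_surjective hσ.1, a0]
  generalize hL : ⁅K.comap σ, K.comap σ⁆ = L at a1
  have a2 : ∀ k ∈ K, ∃ l ∈ L, σ l = k := fun k hk => (a1 ▸ hk : k ∈ L.map σ)
  have a3 : L ≤ ⁅L, L⁆ := hL.symm.le.trans (Subgroup.commutator_le.2 fun a ha b hb => by
    obtain ⟨a', h1, h2⟩ := a2 _ ha
    obtain ⟨b', h3, h4⟩ := a2 _ hb
    exact H81.commutatorElement_eq_of_map_eq hσ.2.1 h2.symm h4.symm ▸ Subgroup.commutator_mem_commutator h1 h3)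
  let τ : L →* K := (σ.comp L.subtype).codRestrict K fun g => a1 ▸ ⟨g.1, g.2, rfl⟩
  obtain ⟨us, b1, b2⟩ := hU L τ ⟨fun k => let ⟨l, h1, h2⟩ := a2 k k.2; ⟨⟨l, h1⟩, Subtype.ext h2⟩,
    fun z hz => Subgroup.mem_center_iff.2 fun g => Subtype.ext
      (Subgroup.mem_center_iff.1 (hσ.2.1 (show σ z = 1 from congrArg Subtype.val hz)) g), fun z _ => by
      have := a3 z.2
      rw [← L.map_subtype_commutator] at this
      obtain ⟨y, h1, h2⟩ := this
      exact (Subtype.ext h2 : y = z) ▸ h1⟩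
  cases b1
  have a4 : ∀ l ∈ L, σ l = 1 → l = 1 := fun l hl h1 => by
    simpa using b2 ⟨l, hl⟩ (Subtype.ext h1)
  have a5 : ∀ x, ∃ y, σ y = el x ∧ (el x ∈ K → y ∈ L) := fun x => by
    by_cases c : el x ∈ K
    · exact let ⟨l, h1, h2⟩ := a2 _ c; ⟨l, h2, fun _ => h1⟩
    · exact let ⟨l, h1⟩ := hσ.1 (el x); ⟨l, h1, fun h => absurd h c⟩
  choose f f1 f2 using a5
  simp only [startOK, Bool.and_eq_true, List.all_eq_true, List.mem_range, Bool.or_eq_true, List.contains_iff_mem,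
    beq_iff_eq, bne_iff_ne] at h
  obtain ⟨⟨h1, h2⟩, h3⟩ := h
  let e : ℕ → Γ := fun x => if el x ∈ K ∨ x < ivf iv x ∨ 64 ≤ x then f x else (f (ivf iv x))⁻¹
  have e1 : ∀ x, σ (e x) = el x := fun x => by
    simp only [e]
    split_ifs with c
    · exact f1 x
    · rw [map_inv, f1, R.hinv x (by omega), inv_inv]
  have e2 : ∀ x, el x ∈ K → e x ∈ L := fun x c => by
    simp only [e, if_pos (Or.inl c)]
    exact f2 x c
  refine ⟨L, e, hσ.2.1, a4, ⟨a4 _ (e2 0 (R.h0 ▸ K.one_mem)) ((e1 0).trans R.h0), fun x hx => ?_, fun r hr => ?_, h2⟩,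
    e1, fun x hx => e2 x (hK x hx), fun g hg l hl => ?_⟩
  · by_cases c : el x ∈ K
    · exact eq_inv_of_mul_eq_one_left (a4 _ (L.mul_mem (e2 _ (R.hinv x hx ▸ K.inv_mem c)) (e2 x c))
        (by rw [map_mul, e1, e1, R.hinv x hx, inv_mul_cancel]))
    · have c' : el (ivf iv x) ∉ K := fun h => c (by rwa [R.hinv x hx, K.inv_mem_iff] at h)
      rcases h1 x hx with (d | d) | ⟨d1, d2⟩
      · exact absurd (hK x d) c
      · exact absurd (d ▸ R.h0 ▸ K.one_mem) c'
      · have := H58.ivf_lt iv x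
        simp only [e, c, c', d1, false_or]
        split_ifs <;> first | omega | simp
  · refine a4 _ (H58.wv_mem fun x hx => e2 x (hK x ((h3 r hr).2 x hx))) ?_
    rw [map_list_prod, List.map_map, show σ ∘ e = el from funext e1]
    exact R.hrel r (h3 r hr).1
  · have a6 : (K.comap σ).map (MulAut.conj g).toMonoidHom ≤ K.comap σ := by
      rintro _ ⟨y, hy, rfl⟩
      simpa using hK0 ▸ hg (σ y) (hK0 ▸ hy)
    rw [← hL] at hl ⊢
    exact Subgroup.commutator_mono a6 a6 (Subgroup.map_commutator _ _ (MulAut.conj g).toMonoidHom ▸ ⟨l, hl, rfl⟩)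

section
variable {Γ G : Type*} [Group Γ] [Group G] {σ : Γ →* G} {el : ℕ → G} {L : Subgroup Γ} {gK : List ℕ} {iv : ℕ}
  {e : ℕ → Γ} {rs rG : List (List ℕ)} (h : Lf σ el L gK iv e rs) (R : RuleOK el rG iv)
include h

theorem Lf.wv (w : List ℕ) : σ (wv e w) = wv el w := by rw [H58.map_wv, funext h.lift]

/-- the exponent sum -/
def exS (χ : List ℤ) (w : List ℕ) : ℤ := (w.map fun x => χ.getD x 0).sum

/-- the check for a central modification of the letters -/
def normOK (rG : List (List ℕ)) (iv : ℕ) (gK : List ℕ) (rs : List (List ℕ)) (χ : List ℤ) (w : List ℕ)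
    (wit : List (ℕ × ℕ)) : Bool :=
  catOK rG iv w wit && exS χ w == 1 && (rs.all fun r => exS χ r == 0) && ((0 :: gK).all fun x => χ.getD x 0 == 0) &&
    (List.range 64).all fun x => χ.getD (ivf iv x) 0 == -χ.getD x 0

include R

theorem Lf.norm {χ : List ℤ} {w : List ℕ} {wit : List (ℕ × ℕ)} (c : normOK rG iv gK rs χ w wit = true) :
    ∃ e, Lf σ el L gK iv e (w :: rs) := by
  simp only [normOK, Bool.and_eq_true, List.all_eq_true, beq_iff_eq, List.mem_range, List.forall_mem_cons] at c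
  obtain ⟨⟨⟨⟨c1, c2⟩, c3⟩, c4, c5⟩, c6⟩ := c
  have a1 : σ (H58.wv e w)⁻¹ = 1 := by rw [map_inv, h.wv, wv_cat R c1, inv_one]
  generalize hz : (H58.wv e w)⁻¹ = z at a1
  have a2 : ∀ g (k : ℤ), z ^ k * g = g * z ^ k := fun g k =>
    (Subgroup.mem_center_iff.1 (Subgroup.zpow_mem _ (h.cen a1) k) g).symm
  have a3 : ∀ r : List ℕ, (r.map fun x => e x * z ^ χ.getD x 0).prod = H58.wv e r * z ^ exS χ r := fun r => by
    induction r with
    | nil => simp [exS, H58.wv]
    | cons x r ih =>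
      rw [List.map_cons, List.prod_cons, ih, mul_assoc, ← mul_assoc (z ^ _), a2, mul_assoc, ← zpow_add, ← mul_assoc]
      rfl
  refine ⟨fun x => e x * z ^ χ.getD x 0, h.cen, h.inj, ⟨by simp only [c4, h.rule.h0, zpow_zero, mul_one],
    fun x hx => by rw [c6 x hx, h.rule.hinv x hx, mul_inv_rev, zpow_neg, ← zpow_neg, a2], List.forall_mem_cons.2
      ⟨by rw [a3, c2, zpow_one, ← hz, mul_inv_cancel], fun r hr => by
        rw [a3, c3 r hr, zpow_zero, mul_one]; exact h.rule.hrel r hr⟩, ?_⟩,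
    fun x => by rw [map_mul, map_zpow, a1, one_zpow, mul_one, h.lift],
    fun x hx => by simpa only [c5 x hx, zpow_zero, mul_one] using h.mem x hx, h.nrm⟩
  simp only [catOK, Bool.and_eq_true] at c1
  exact allLt_iff.2 (List.forall_mem_cons.2 ⟨allLt_iff.1 c1.1 w List.mem_cons_self, allLt_iff.1 h.rule.hlt⟩)

/-- the check for a system with new letters, among them the central letters `zs` -/
def stepOK (rG : List (List ℕ)) (iv : ℕ) (gK : List ℕ) (rs : List (List ℕ)) (n : ℕ) (ws : List (List ℕ))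
    (zs : List (ℕ × List (ℕ × ℕ))) (rs' : List (List ℕ)) (iv' : ℕ) (wit wit' : List (ℕ × ℕ)) (fix gs : List ℕ)
    (rs2 : List (List ℕ)) : Bool :=
  H58.extOK ([0] :: rs) iv n ws (rs'.map fun r => r.filter (fun x => !(zs.map Prod.fst).contains x) ++
    (r.filter fun x => (zs.map Prod.fst).contains x).insertionSort (· ≤ ·)) iv' wit wit' && allLt rs' &&
  (zs.all fun z => catOK rG iv (subst n ws [z.1]) z.2) && (fix.all fun x => (subst n ws [x]).all fun y => gK.contains y) &&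
  (gs.all fun z => (zs.map Prod.fst).contains z) && allLt rs2 &&
  rs2.all fun r => rs.contains r || (gs.map fun z => cancel iv (subst n ws [z])).contains r

theorem Lf.step {n : ℕ} {ws : List (List ℕ)} {zs : List (ℕ × List (ℕ × ℕ))} {rs' : List (List ℕ)} {iv' : ℕ}
    {wit wit' : List (ℕ × ℕ)} {fix gs : List ℕ} {rs2 : List (List ℕ)}
    (c : stepOK rG iv gK rs n ws zs rs' iv' wit wit' fix gs rs2 = true)
    (T : ∀ f : ℕ → Γ, RuleOK f rs' iv' → (∀ x ∈ fix, f x ∈ L) → ∀ z ∈ gs, f z ∈ L) : Lf σ el L gK iv e rs2 := by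
  simp only [stepOK, Bool.and_eq_true, List.all_eq_true (p := fun z : ℕ × List (ℕ × ℕ) => _),
    List.all_eq_true (l := gs), List.all_eq_true (l := rs2), Bool.or_eq_true, List.contains_iff_mem] at c
  obtain ⟨⟨⟨⟨⟨⟨c1, c2⟩, c3⟩, c4⟩, c5⟩, c6⟩, c7⟩ := c
  have Q := H58.RuleOK.extend (rels := [0] :: rs) ⟨h.rule.h0, h.rule.hinv,
    List.forall_mem_cons.2 ⟨by simpa using h.rule.h0, h.rule.hrel⟩, h.rule.hlt⟩ c1
  have a1 : ∀ z ∈ zs.map Prod.fst, σ (elX e iv n ws z) = 1 ∧ ∀ x ∈ subst n ws [z], x < 64 := fun z hz => by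
    obtain ⟨z, h1, rfl⟩ := List.mem_map.1 hz
    refine ⟨by rw [H58.elX_eq_wv, h.wv, wv_cat R (c3 z h1)], ?_⟩
    have := c3 z h1
    simp only [catOK, Bool.and_eq_true] at this
    exact allLt_iff.1 this.1 _ List.mem_cons_self
  generalize zs.map Prod.fst = Z at Q a1 c5
  have a2 : ∀ r : List ℕ, (r.map (elX e iv n ws)).prod = ((r.filter fun x => !Z.contains x).map (elX e iv n ws)).prod *
      ((r.filter fun x => Z.contains x).map (elX e iv n ws)).prod := fun r => by
    induction r with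
    | nil => simp
    | cons x r ih =>
      by_cases c : x ∈ Z
      · rw [List.filter_cons_of_neg (by simpa using c), List.filter_cons_of_pos (by simpa using c), List.map_cons,
          List.map_cons, List.prod_cons, List.prod_cons, ih, ← mul_assoc, ← mul_assoc,
          Subgroup.mem_center_iff.1 (h.cen (a1 x c).1)]
      · rw [List.filter_cons_of_pos (by simpa using c), List.filter_cons_of_neg (by simpa using c), List.map_cons,
          List.map_cons, List.prod_cons, List.prod_cons, ih, mul_assoc]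
  have a3 := T _ ⟨Q.h0, Q.hinv, fun r hr => by
    rw [a2, ← ((List.perm_insertionSort (· ≤ ·) (r.filter fun x => Z.contains x)).map _).prod_eq'
      (List.pairwise_map.2 (List.pairwise_of_forall_mem_list fun x _ y hy => Subgroup.mem_center_iff.1 (h.cen (a1 y (by
        simpa using (List.mem_filter.1 ((List.perm_insertionSort _ _).subset hy)).2)).1) _)),
      ← List.prod_append, ← List.map_append]
    exact Q.hrel _ (List.mem_map_of_mem hr), c2⟩
    (H58.elX_mem iv n ws h.mem fix c4)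
  refine ⟨h.cen, h.inj, ⟨h.rule.h0, h.rule.hinv, fun r hr => (c7 r hr).elim (h.rule.hrel r) fun d => ?_, c6⟩, h.lift,
    h.mem, h.nrm⟩
  obtain ⟨z, d1, rfl⟩ := List.mem_map.1 d
  have := h.inj _ (a3 z d1) (a1 z (c5 z d1)).1
  rwa [H58.elX_eq_wv, ← H58.wv_cancel h.rule.hinv _ (a1 z (c5 z d1)).2] at this

/-- the relator of a conjugation -/
def conjW (iv z : ℕ) (u : List ℕ × List ℕ × List (ℕ × ℕ)) : List ℕ := z :: u.1 ++ ivf iv z :: u.2.1

/-- the check for a letter that normalizes the subgroup -/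
def conjOK (rG : List (List ℕ)) (iv : ℕ) (gK : List ℕ) (z : ℕ) (us : List (List ℕ × List ℕ × List (ℕ × ℕ))) : Bool :=
  Nat.ble z 63 && (gK.all fun x => (us.map Prod.fst).contains [x]) &&
    us.all fun u => catOK rG iv (conjW iv z u) u.2.2 && (u.1 ++ u.2.1).all fun x => gK.contains x

theorem Lf.conj {z : ℕ} {us : List (List ℕ × List ℕ × List (ℕ × ℕ))} (c : conjOK rG iv gK z us = true) :
    Lf σ el L gK iv e (us.map (conjW iv z) ++ rs) := by
  simp only [conjOK, Bool.and_eq_true, List.all_eq_true, List.contains_iff_mem, Nat.ble_eq, ← Nat.lt_succ_iff,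
    List.forall_mem_append] at c
  obtain ⟨⟨c1, c2⟩, c3⟩ := c
  have a1 : ∀ k ∈ clL el gK, σ (e z) * k * (σ (e z))⁻¹ ∈ clL el gK := fun k hk => by
    have : (clL el gK).map (MulAut.conj (el z)).toMonoidHom ≤ clL el gK := by
      rw [H58.clL_map]
      refine H58.clL_le fun x hx => ?_
      obtain ⟨u, h1, h2⟩ := List.mem_map.1 (c2 x hx)
      have := wv_cat R (c3 u h1).1
      rw [conjW, h2, H58.wv, List.map_append, List.prod_append, List.map_cons, List.map_cons, List.map_cons,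
        List.prod_cons, List.prod_cons, List.prod_cons, List.map_nil, List.prod_nil, mul_one, R.hinv z c1,
        ← mul_assoc, mul_eq_one_iff_eq_inv] at this
      exact (this.symm ▸ inv_mem (H58.wv_mem fun y hy => Subgroup.subset_closure ⟨y, (c3 u h1).2.2 y hy, rfl⟩) :
        el z * el x * (el z)⁻¹ ∈ clL el gK)
    exact h.lift z ▸ this ⟨k, hk, rfl⟩
  refine ⟨h.cen, h.inj, ⟨h.rule.h0, h.rule.hinv, List.forall_mem_append.2 ⟨fun r hr => ?_, h.rule.hrel⟩,
    allLt_iff.2 (List.forall_mem_append.2 ⟨fun r hr => ?_, allLt_iff.1 h.rule.hlt⟩)⟩, h.lift, h.mem, h.nrm⟩ <;>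
  obtain ⟨u, h1, rfl⟩ := List.mem_map.1 hr
  · refine h.inj _ ?_ ((h.wv _).trans (wv_cat R (c3 u h1).1))
    rw [conjW, List.map_append, List.prod_append, List.map_cons, List.map_cons, List.prod_cons, List.prod_cons,
      h.rule.hinv z c1, ← mul_assoc]
    exact mul_mem (h.nrm _ a1 _ (H58.wv_mem fun y hy => h.mem y ((c3 u h1).2.1 y hy)))
      (H58.wv_mem fun y hy => h.mem y ((c3 u h1).2.2 y hy))
  · have := (c3 u h1).1
    simp only [catOK, Bool.and_eq_true] at this
    exact allLt_iff.1 this.1 _ List.mem_cons_self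

end

theorem UB.of_split {G : Type} [Group G] [Finite G] {el : ℕ → G} {gens : List ℕ}
    (ht : ∀ K : Subgroup G, (∀ x ∈ gens, el x ∈ K) → K = ⊤)
    (h : ∀ (Γ : Type) [Group Γ] [Finite Γ] (σ : Γ →* G), IsStemExtension σ →
      ∃ (e : ℕ → Γ) (φ : G →* Γ), (∀ x, σ (e x) = el x) ∧ ∀ x ∈ gens, e x ∈ φ.range) : UB G [] := by
  intro Γ _ _ σ hσ
  obtain ⟨e, φ, h1, h2⟩ := h Γ σ hσ
  have a1 : ∀ g, ∃ y ∈ φ.range, σ y = σ g := fun g =>
    (ht (φ.range.map σ) (fun x hx => ⟨_, h2 x hx, h1 x⟩) ▸ trivial : σ g ∈ φ.range.map σ)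
  have a2 : commutator Γ ≤ φ.range := Subgroup.commutator_le.2 fun a _ b _ => by
    obtain ⟨a', h3, h4⟩ := a1 a
    obtain ⟨b', h5, h6⟩ := a1 b
    rw [H81.commutatorElement_eq_of_map_eq hσ.2.1 h4.symm h6.symm, commutatorElement_def]
    exact mul_mem (mul_mem (mul_mem h3 h5) (inv_mem h3)) (inv_mem h5)
  have a3 : Surjective φ := fun g => by
    obtain ⟨y, h3, h4⟩ := a1 g
    have : y⁻¹ * g ∈ φ.range := a2 (hσ.2.2 (show σ _ = 1 by rw [map_mul, map_inv, h4, inv_mul_cancel]))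
    simpa using mul_mem h3 this
  have a4 := (hσ.1.bijective_of_nat_card_le (Nat.card_le_card_of_surjective φ a3)).1
  exact ⟨[], List.Forall₂.nil, fun z hz => a4 ((show σ z = 1 from hz).trans (map_one σ).symm) ▸ Subgroup.one_mem _⟩

theorem UB.of_mult {G : Type*} [Group G] (h : HasCyclicSchurMultiplier G 1) : UB G [] := fun Γ _ _ σ hσ =>
  let ⟨π, hπ⟩ := h.2 Γ σ hσ
  ⟨[], List.Forall₂.nil, fun z hz => by
    obtain ⟨a, ha⟩ := hπ ⟨z, hz⟩
    rw [Subsingleton.elim a 1, map_one] at ha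
    exact (show (1 : Γ) = z from congrArg Subtype.val ha) ▸ Subgroup.one_mem _⟩

/-- the generators of a presented group -/
theorem pres_range {α Γ : Type} [DecidableEq α] [Group Γ] {e : ℕ → Γ} (edges : List (α × ℕ × α))
    (extra : List (FreeGroup α)) {defs : List (α × FreeGroup α)} {code : α → ℕ} {iv : ℕ} {rels : List (List ℕ)}
    {wit : List (List ℕ × ℕ × ℕ)} (R : RuleOK e rels iv) (hc : ∀ g, code g < 64)
    (h : H17.homOK' (H58.coxAll edges ++ extra) defs code iv rels wit = true) {gens : List ℕ} {L : List (FreeGroup α)}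
    (h1 : (L.map (fun w => H58.toL code iv (H17.subs defs w)) == gens.map fun x => [x]) = true) :
    ∃ φ : Spor.CoxPresented α edges extra →* Γ, ∀ x ∈ gens, e x ∈ φ.range :=
  ⟨H17.presHom edges extra R hc h, fun x hx => by
    obtain ⟨w, -, h2⟩ := List.mem_map.1 (beq_iff_eq.1 h1 ▸ List.mem_map_of_mem (f := fun x => [x]) hx)
    exact ⟨PresentedGroup.mk _ w, by rw [H17.presHom_mk, h2]; simp [wv]⟩⟩

end Cfsg.Agent.H63
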