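/-
Covering groups have trivial multiplier; rules in matrix groups.
-/
import Cfsg.Agent.H63.Split
import Cfsg.Prelude.Def_SporadicB

set_option autoImplicit false

namespace Cfsg.Agent.H63

open H14 (force force_eq allN allN_iff allL allL_iff anyL anyL_iff beq_iff ble_iff)
open H58 (RuleOK ivf allLt clL)
open Function Matrix

theorem UB.congr {G H : Type} [Group G] [Group H] {ns : List ℕ} (h : UB G ns) (e : G ≃* H) : UB H ns := by
  intro Γ _ _ σ hσ
  have h1 : (e.symm.toMonoidHom.comp σ).ker = σ.ker := by ext x; simp [MonoidHom.mem_ker]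
  have := h Γ _ (H81.isStemExtension_equiv_comp hσ e.symm)
  rwa [h1] at this

theorem UB.of_cover {X G : Type} [Group X] [Group G] [Finite X] (π : X →* G) (hs : Surjective π)
    (hX : commutator X = ⊤) {n : ℕ} [NeZero n] (hk : Nat.card π.ker = n) (hc : π.ker ≤ Subgroup.center X)
    (h : HasCyclicSchurMultiplier G n) : UB X [] := fun Γ _ _ σ hσ => by
  have h1 := LB.lift π hs hX hk hc (LB.of_ext σ hσ.1 hσ.2.1 _ le_rfl hσ.2.2) _ h
  rw [Nat.card_congr Multiplicative.toAdd, Nat.card_zmod] at h1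
  have h2 : Nat.card σ.ker = 1 := Nat.dvd_one.1 (Nat.dvd_of_mul_dvd_mul_right (NeZero.pos n) (by rwa [one_mul]))
  exact ⟨[], List.Forall₂.nil, fun z hz => (Subgroup.mem_bot.1 (Subgroup.card_eq_one.1 h2 ▸ hz)).symm ▸ Subgroup.one_mem _⟩

theorem ub_of_double {X G : Type} [Group X] [Group G] [Finite X] (h : IsNonsplitDoubleCover X G)
    (hG : commutator G = ⊤) (hm : HasCyclicSchurMultiplier G 2) : commutator X = ⊤ ∧ UB X [] := by
  obtain ⟨h1, ⟨e⟩, h2⟩ := h
  let π := e.toMonoidHom.comp (QuotientGroup.mk' (Subgroup.center X))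
  have a1 : π.ker = Subgroup.center X := by ext x; simp [π]
  have a2 : Surjective π := e.surjective.comp (QuotientGroup.mk'_surjective _)
  have a3 : commutator X = ⊤ := commutator_top_of_ker π a2 hG (by
    have : Fact (Nat.card (Subgroup.center X)).Prime := ⟨h1 ▸ Nat.prime_two⟩
    rw [a1, ← Subgroup.subgroupOf_eq_top]
    refine (Subgroup.eq_bot_or_eq_top_of_prime_card _).resolve_left fun c => h2 (commutator X)
      (Subgroup.isComplement'_of_disjoint_and_mul_eq_univ (Subgroup.subgroupOf_eq_bot.1 c).symm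
        (Set.eq_univ_of_forall fun x => ?_))
    have : π x ∈ (commutator X).map π := by
      rw [map_commutator_eq, MonoidHom.range_eq_top.2 a2, ← commutator_def, hG]; trivial
    obtain ⟨y, hy, d⟩ := this
    exact ⟨x * y⁻¹, (a1 ▸ (show π _ = 1 by rw [map_mul, map_inv, d, mul_inv_cancel]) : _ ∈ Subgroup.center X), y, hy,
      inv_mul_cancel_right x y⟩)
  exact ⟨a3, UB.of_cover π a2 a3 (a1 ▸ h1) a1.le hm⟩

/-- elements of a matrix group that satisfy the rules -/
theorem Mod.rule {G : Type*} [Group G] {d m D I : ℕ} {mu : ℕ → ℕ → ℕ} {ok : ℕ → Bool}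
    (E : EngOK d m D mu ok I) {cs : List ℕ} (hM : Mod G d m D cs) {iv nq a : ℕ} {rs : List (ℕ × List ℕ × ℕ)}
    (h0 : (allLt (rs.map relW) && Nat.ble rs.length nq && Nat.beq (nth I cs 0) I && !Nat.beq (nth I cs a) I &&
      allN 64 fun x => relV mu I cs [I] (x, [ivf iv x], 0)) = true)
    (h2 : ∀ q < nq, relV mu I cs [I] (nth (0, [], 0) rs q) = true) :
    ∃ g : ℕ → G, RuleOK g (rs.map relW) iv ∧ (∀ x, cs.length ≤ x → g x = 1) ∧ g a ≠ 1 := by
  obtain ⟨ρ, a1, a2⟩ := hM
  have ρi : Injective ρ := (injective_iff_map_eq_one ρ).2 a1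
  let R : ℕ → G → Prop := fun a x => OkM d m D a ∧ decM d m D a = (ρ x)ᵀ
  have mul : ∀ a b x y, R a x → R b y → R (mu a b) (y * x) := fun a b x y h h' => let ⟨c1, c2⟩ := E.mul.2 h.1 h'.1
    ⟨c1, by rw [c2, h.2, h'.2, map_mul, transpose_mul]⟩
  have uniq : ∀ a x y, R a x → R a y → x = y := fun a x y h h' => ρi (transpose_injective (h.2.symm.trans h'.2))
  have hI : R I 1 := ⟨E.one.1, by rw [E.one.2, map_one, transpose_one]⟩
  simp only [Bool.and_eq_true, allN_iff, beq_iff, ble_iff, Bool.not_eq_true'] at h0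
  obtain ⟨⟨⟨⟨b1, b2⟩, b3⟩, b4⟩, b6⟩ := h0
  choose el e2 using fun x => (nth_mem I cs x).elim (fun e => e.symm ▸ (⟨1, hI⟩ : ∃ y, R I y))
    fun h => let ⟨y, _, c⟩ := a2 _ h; ⟨y, c⟩
  have h8 : ∀ (w : List ℕ) a y, R a y → R (evW mu I cs w a) ((w.reverse.map el).prod * y) := fun w => by
    induction w with
    | nil => exact fun a y h => by rw [List.reverse_nil, List.map_nil, List.prod_nil, one_mul]; exact h
    | cons x w ih =>
      intro a y h
      have := ih _ (el x * y) (mul _ _ _ _ h (e2 x))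
      rw [List.reverse_cons, List.map_append, List.prod_append, mul_assoc,
        show evW mu I cs (x :: w) a = evW mu I cs w _ from force_eq _ _]
      simpa using this
  have h9 : ∀ a y, R a y → ∀ k, R (pw mu a k) (y ^ (k + 1)) := fun a y h k => by
    induction k with
    | zero => rw [zero_add, pow_one]; exact h
    | succ k ih => rw [pow_succ']; exact mul _ _ _ _ ih h
  have h5 : ∀ t, relV mu I cs [I] t = true → ((relW t).map el).prod = 1 := by
    intro t h6
    simp only [relV, force_eq, anyL_iff, beq_iff, List.mem_singleton, exists_eq_left] at h6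
    rw [relW, List.map_flatten, List.prod_flatten, List.map_replicate, List.map_replicate, List.prod_replicate,
      ← uniq _ _ _ (h6 ▸ h9 _ _ (h8 _ _ (el _) (e2 _)) _) hI, List.reverse_cons, List.map_append, List.prod_append]
    simp
  refine ⟨el, ⟨uniq _ _ _ (e2 0) (b3.symm ▸ hI), fun x hx => eq_inv_of_mul_eq_one_left (by
    simpa [relW] using h5 _ (b6 x hx)), fun r hr => ?_, b1⟩, fun x h => uniq _ _ _ (e2 x)
      (((nth_eq _ _ _).trans (List.getD_eq_default _ _ h)).symm ▸ hI), fun h => ?_⟩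
  · obtain ⟨t, h4, rfl⟩ := List.mem_map.1 hr
    obtain ⟨q, h5', rfl⟩ := nth_of_mem (0, [], 0) h4
    exact h5 _ (h2 q (by omega))
  · rw [decM_inj E.mul.1 (e2 a).1 hI.1 ((e2 a).2.trans (h ▸ hI.2.symm)), beq_iff.2 rfl] at b4
    exact absurd b4 (by simp)

/-- a simple group with a presentation is isomorphic to a group of the same order that satisfies the rules -/
theorem Univ.equiv {K : Type*} {G : Type} [Group K] [Group G] [Finite G] [IsSimpleGroup K] {rels : List (List ℕ)}
    {iv n a : ℕ} (h : Univ K rels iv n) (hc : Nat.card K = Nat.card G)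
    (hg : ∃ g : ℕ → G, RuleOK g rels iv ∧ (∀ x, n ≤ x → g x = 1) ∧ g a ≠ 1) : Nonempty (K ≃* G) := by
  obtain ⟨g, h1, h2, h3⟩ := hg
  obtain ⟨φ, h4⟩ := h G g h1 h2
  have : Injective φ := (MonoidHom.ker_eq_bot_iff φ).1 (φ.normal_ker.eq_bot_or_eq_top.resolve_right fun c => by
    obtain ⟨y, d⟩ := h4 a
    exact h3 (d.symm.trans (show y ∈ φ.ker from c ▸ trivial)))
  exact ⟨MulEquiv.ofBijective φ (this.bijective_of_nat_card_le hc.ge)⟩

end Cfsg.Agent.H63
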