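/-
The subgroup of type 3D4(2) in the Thompson group has trivial multiplier (generated certificates).
-/
import Cfsg.Agent.H63.Split2
import Cfsg.Agent.H17.ThS
import Cfsg.Agent.H66.D4Rep
import Cfsg.Agent.S2110
import Cfsg.Agent.S1067

set_option autoImplicit false
set_option maxRecDepth 100000
set_option Elab.async false

namespace Cfsg.Agent.H63.D4

open H14

open H56 H66.D4

def I : ℕ := idm (nat_lit 24) (nat_lit 1)
noncomputable abbrev mu : ℕ → ℕ → ℕ := muX (nat_lit 24)
abbrev ok : ℕ → Bool := szOK (nat_lit 24) (nat_lit 1)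
theorem par : EngOK (nat_lit 24) (nat_lit 2) (nat_lit 1) mu ok I := eng_X (by decide)
def gw : List (List (ℕ × ℕ) × ℕ × ℕ) := [([(14, 1)], nat_lit 0x200000048000008000001000000200000040000048000001, nat_lit 0x800000400000200000100000080000040000120000090000048000004000002000001000000800000400000200000120000090000048000020000010000008000004000002000001), ([(9, 1)], nat_lit 0x200000040000048000001000000200000048000008000001, nat_lit 0x800000400000200000120000090000048000020000010000008000004000002000001000000800000400000200000100000080000040000120000090000048000004000002000001), ([(18, 1), (13, 1), (12, 1)], nat_lit 0x240000040000009000001000040200240240000008000009, nat_lit 0x800100400080200040900900480480240240020000010000008000024000012000009000000900000480000240000100000080000040000024000012000009000004000002000001), ([(18, 3), (13, 5), (12, 7)], nat_lit 0x34000004000000b0000010001c0200f80a40000008000019, nat_lit 0x8000c04000402001c03007c08802c0640f8002000001000000800003400003a0000290000008400005000002c000010000008000004000002600001700000d000004000002000001),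 ([(5, 1), (10, 1), (11, 1)], nat_lit 0x200040240240008000009000000240000040000009000001, nat_lit 0x900000480000240000100000080000040000024000012000009000004000002000001000100800080400040200900900480480240240000020000010000008000024000012000009), ([(5, 6), (10, 2), (11, 4)], nat_lit 0x2001004408c000800003100000028000004000000e000001, nat_lit 0x88000054000030000010000008000004000002700001300000e000004000002000001000140800180400080200b80500dc0a8054084000002000001000000800003c00001a000031)]
def cs : List ℕ := [I, nat_lit 0x800000400000200000100000080000040000020004010002008001004020002010001008000800000400000200000100000080000040000020000010000008000004000002000001, nat_lit 0x800000400000200000100000080000040000020000010000008000004000002000001000000800000400000200000100000080000040004020002010001008020004010002008001, nat_lit 0x800000400000200000100004080002040001020004010002008001004120002090001048000800000400000200000100000080000040000020000010000008000004000002000001, nat_lit 0x800000400000200000100000080000040004000002000001000020000010000008000800000400000200000100000080000040000000004000002000001000020000010000008,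 nat_lit 0x800100400080200040900900480480240240020000010000008000024000012000009000000900000480000240000100000080000040000024000012000009000004000002000001, nat_lit 0x400000a000008000001800001c00001400000300000380000280000070000030000060000002000008000006000001c00000c0000180000038000018000030000006000007000005, nat_lit 0x2000008000006000001c00000c0000180000038000018000030000006000007000005000000400000a000008000001800001c0000140000030000038000028000007000003000006]
def rs : List (ℕ × List ℕ × ℕ) := [(2, [1], 2), (5, [1], 1), (3, [2], 2), (4, [2], 1), (5, [2], 1), (3, [4, 3, 4, 3, 4, 3, 4, 1], 0), (5, [3], 1), (5, [4], 2), (5, [4, 3, 2], 7), (6, [], 6), (1, [6, 1, 7], 0), (2, [6, 2, 7], 0), (3, [6, 3, 7], 0), (4, [6], 1), (6, [6, 6, 5, 7, 7, 5, 7, 5], 0)]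
theorem hw : ∀ w ∈ gw, (w.1.map fun p => (p.1, TF.mk F8 p.2)) ∈ Lie.d4Words (TF F8) 2 :=
  (H58.forall_cons (Or.inl ⟨1, one_pow _, 14, by decide, rfl⟩)
    (H58.forall_cons (Or.inl ⟨1, one_pow _, 9, by decide, rfl⟩)
    (H58.forall_cons (Or.inr ⟨TF.mk F8 1, (18, 13, 12), by decide, by decide +kernel⟩)
    (H58.forall_cons (Or.inr ⟨TF.mk F8 3, (18, 13, 12), by decide, by decide +kernel⟩)
    (H58.forall_cons (Or.inr ⟨TF.mk F8 1, (5, 10, 11), by decide, by decide +kernel⟩)
    (H58.forall_cons (Or.inr ⟨TF.mk F8 6, (5, 10, 11), by decide, by decide +kernel⟩)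
    (H58.forall_nil' _)))))))
def gm (w : List (ℕ × ℕ)) (i j : κ) : TF F8 :=
  ((w.map fun p => (p.1, TF.mk F8 p.2)).map fun p => 1 + p.2 • sgl (TF F8) (sp p.1)).prod i j
theorem hm : (gw.all fun w => decide (∀ i j : κ, gm w.1 i j = TF.mk F8 (ent F8.b F8.B (4 + 4) w.2.1
    (finSumFinEquiv i : Fin (4 + 4)) (finSumFinEquiv j : Fin (4 + 4))))) = true := by decide +kernel
theorem md0 : Mod (Lie.twistedD4 (TF F8) 2) (nat_lit 24) (nat_lit 2) (nat_lit 1) ((gw.map Prod.snd).map Prod.snd) := by
  obtain ⟨ρ, h1, -, h2⟩ := exists_rep (K := TF F8) (by decide +kernel) (q := 2) Nat.prime_two.isPrimePow (TF.card F8)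
  obtain ⟨r, hr⟩ := exists_reg (ι := RingHom.id (TF F8)) Function.bijective_id (p := 2) (f := 3) (rg := (rgT 3 (nat_lit 0x51551554101454150554145404404040000)))
    (by decide +kernel)
  have hb : ∀ w ∈ gw, blkOK (nat_lit 24) 2 (nat_lit 1) 3 w.2.2 (rgT 3 (nat_lit 0x51551554101454150554145404404040000)) (ent F8.b F8.B (4 + 4) w.2.1) = true := by decide +kernel
  refine ⟨brho r finSumFinEquiv rfl ((Units.coeHom _).comp ρ), brho_inj r _ _ _ (by decide) (Units.val_injective.comp h1),
    fun A hA => ?_⟩
  rw [List.map_map] at hA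
  obtain ⟨w, h3, rfl⟩ := List.mem_map.1 hA
  obtain ⟨g, h4⟩ := h2 _ (hw w h3)
  exact hasT_matOf hr _ _ _ ⟨g, h4.trans (Matrix.ext fun i j => of_decide_eq_true (List.all_eq_true.1 hm w h3) i j)⟩ (hb w h3)
theorem md : Mod (Lie.twistedD4 (TF F8) 2) (nat_lit 24) (nat_lit 2) (nat_lit 1) cs :=
  md0.slp2 par (ws := [(nat_lit 0, [nat_lit 1, nat_lit 0, nat_lit 2, nat_lit 4, nat_lit 2, nat_lit 0, nat_lit 2, nat_lit 4, nat_lit 2, nat_lit 0, nat_lit 1, nat_lit 0]), (nat_lit 1, [nat_lit 2, nat_lit 1, nat_lit 3, nat_lit 5, nat_lit 3, nat_lit 1, nat_lit 2, nat_lit 1, nat_lit 1, nat_lit 1, nat_lit 2, nat_lit 1, nat_lit 3, nat_lit 5, nat_lit 3, nat_lit 1, nat_lit 2, nat_lit 1]), (nat_lit 2, [nat_lit 3, nat_lit 2, nat_lit 4, nat_lit 6, nat_lit 4, nat_lit 2, nat_lit 4, nat_lit 6, nat_lit 4, nat_lit 2, nat_lit 3, nat_lit 2, nat_lit 4, nat_lit 6, nat_lit 4, nat_lit 2, nat_lit 4, nat_lit 6, nat_lit 4]), (nat_lit 5, [nat_lit 7, nat_lit 5]), (nat_lit 6, []), (nat_lit 7, [nat_lit 9, nat_lit 7, nat_lit 8, nat_lit 10, nat_lit 8]), (nat_lit 9, [nat_lit 11,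 nat_lit 9, nat_lit 8, nat_lit 10, nat_lit 8])]) (n := 14) (by decide +kernel)

theorem rule : ∃ g : ℕ → Lie.twistedD4 (TF F8) 2, H58.RuleOK g (rs.map relW) H17.ThP.iv ∧ (∀ x, 8 ≤ x → g x = 1) ∧
    g 1 ≠ 1 := md.rule par (nq := 15) (by decide +kernel) (allN_iff.1 (by decide +kernel))

open H17 H58 in
theorem univ : Univ ThS.K (rs.map relW) ThP.iv 8 := by
  have R : RuleOK ThP.el (rs.map relW) ThP.iv := RuleOK_sub ThU.R (by decide +kernel)
  refine univ_clL (N := 211341312) R ThS.card_K'.ge fun _ _ e Q =>
    ⟨ThU.card_K (RuleOK_sub (rels' := ThT4.rels) Q (by decide +kernel)), fun x hx => ?_⟩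
  rcases Nat.eq_zero_or_pos x with rfl | c
  · exact Q.h0 ▸ Subgroup.one_mem _
  · exact el_mem_closure e _ x (by revert x; decide)

theorem card : Nat.card (Lie.twistedD4 (TF F8) 2) = 211341312 :=
  (S1067.result (q := 2) Nat.prime_two.isPrimePow (TF.card F8)).trans (by norm_num)

theorem equiv : Nonempty (H17.ThS.K ≃* Lie.twistedD4 (TF F8) 2) :=
  have : Finite (Lie.twistedD4 (TF F8) 2) := Nat.finite_of_card_ne_zero (by rw [card]; norm_num)
  @Univ.equiv H17.ThS.K (Lie.twistedD4 (TF F8) 2) _ _ this H17.ThS.simpleK _ _ _ _ univ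
    (H17.ThS.card_K'.trans card.symm) rule

theorem hK : commutator H17.ThS.K = ⊤ ∧ UB H17.ThS.K [] :=
  ⟨@commutator_top_of_card _ _ H17.ThS.simpleK (by rw [H17.ThS.card_K']; norm_num), let ⟨e⟩ := equiv
    (UB.of_mult (S2110.result (q := 2) Nat.prime_two.isPrimePow (TF.card F8))).congr e.symm⟩

end Cfsg.Agent.H63.D4
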