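/-
A lower bound for the multiplier from letters that satisfy the rules up to a central subgroup.
-/
import Cfsg.Agent.H63.Pres3

set_option autoImplicit false

namespace Cfsg.Agent.H63

open H58 (RuleOK ivf allLt clL)
open Function

theorem LB.of_rules {G : Type*} [Group G] [IsSimpleGroup G] {rels : List (List ℕ)} {iv n : ℕ} (hU : Univ G rels iv n)
    {X : Type} [Group X] (e : ℕ → X) (hX : Subgroup.closure (Set.range e) = ⊤) (N : Subgroup X) [N.Normal]
    (hc : N ≤ Subgroup.center X) (hN : N ≤ commutator X) (R : RuleOK (fun x => (e x : X ⧸ N)) rels iv)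
    (hn : ∀ x, n ≤ x → e x = 1) : LB G (Nat.card N) := by
  obtain ⟨φ, hφ⟩ := hU (X ⧸ N) _ R fun x hx => by rw [hn x hx, QuotientGroup.mk_one]
  have h1 : ∀ x : X, (x : X ⧸ N) ∈ φ.range := fun x => by
    have : ⊤ ≤ φ.range.comap (QuotientGroup.mk' N) := hX ▸ (Subgroup.closure_le _).2 (by rintro _ ⟨x, rfl⟩; exact hφ x)
    exact this (Subgroup.mem_top x)
  have h2 : Surjective φ := fun x => QuotientGroup.induction_on x h1
  rcases IsSimpleGroup.eq_bot_or_eq_top_of_normal φ.ker inferInstance with h | h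
  · let ε := MulEquiv.ofBijective φ ⟨(MonoidHom.ker_eq_bot_iff φ).1 h, h2⟩
    have h3 : (ε.symm.toMonoidHom.comp (QuotientGroup.mk' N)).ker = N := by
      ext x
      simp
    exact LB.of_ext (ε.symm.toMonoidHom.comp (QuotientGroup.mk' N))
      (ε.symm.surjective.comp (QuotientGroup.mk'_surjective N)) (h3.le.trans hc) N h3.ge hN
  · have h3 : ∀ x : X, x ∈ Subgroup.center X := fun x => hc (by
      obtain ⟨g, hg⟩ := h1 x
      rw [← QuotientGroup.eq_one_iff, ← hg]
      exact h.ge (Subgroup.mem_top g))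
    have h4 : commutator X = ⊥ := by
      rw [commutator, Subgroup.commutator_eq_bot_iff_le_centralizer]
      exact fun x _ y _ => Subgroup.mem_center_iff.1 (h3 x) y
    rw [le_bot_iff.1 (hN.trans h4.le), Subgroup.card_bot]
    exact LB.one

theorem rule_iv1 {G : Type*} [Group G] {e : ℕ → G} {rels : List (List ℕ)} {iv iv' : ℕ} (R : RuleOK e rels iv)
    (h : ∀ x < 64, ivf iv' x = ivf iv x ∨ (ivf iv x = 0 ∧ ivf iv' x < 64 ∧ ivf iv (ivf iv' x) = 0)) :
    RuleOK e rels iv' :=
  have h1 : ∀ x < 64, ivf iv x = 0 → e x = 1 := fun x hx a => by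
    have := R.hinv x hx
    rwa [a, R.h0, eq_comm, inv_eq_one] at this
  ⟨R.h0, fun x hx => (h x hx).elim (fun a => a ▸ R.hinv x hx) fun a => by
    rw [h1 x hx a.1, h1 _ a.2.1 a.2.2, inv_one], R.hrel, R.hlt⟩

end Cfsg.Agent.H63
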