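/-
Checks row by row; tables for the letters of a matrix model.
-/
import Cfsg.Agent.H63.Pres2
import Cfsg.Agent.H17.MatG

set_option autoImplicit false

namespace Cfsg.Agent.H63

open H14 (allL allL_iff anyL anyL_iff)
open Matrix

theorem rows_ok {α : Type} {d : α} {f : α → Bool} {rl : List (List α)} {n : ℕ}
    (h : ∀ r < n, allL (nth [] rl r) f = true) (hn : rl.length ≤ n) (hd : f d = true) (nq : ℕ) :
    ∀ q < nq, f (nth d rl.flatten q) = true := fun q _ => (nth_mem d rl.flatten q).elim (fun e => e.symm ▸ hd) fun hq => by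
  obtain ⟨l, h1, h2⟩ := List.mem_flatten.1 hq
  obtain ⟨r, h3, rfl⟩ := nth_of_mem [] h1
  exact allL_iff.1 (h r (h3.trans_le hn)) _ h2

/-- `A` is the table of the packed rows -/
noncomputable def rowsT (n w D : ℕ) (rows : List ℕ) (A : ℕ) : Bool :=
  !H17.isNil rows && entOK n D A fun a i => H17.dg w (nth 0 rows i) a

theorem mod_of_rep {G : Type*} [Group G] {E : H17.Eng} {mats : List (List ℕ)} (U : H17.UnitsOK E mats)
    (ρ : G →* GL (Fin E.n) (ZMod E.p)) (hρ : Function.Injective ρ) (h1 : ∀ x, ∃ g, ρ g = H17.elM E mats x)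
    {D I : ℕ} {mu : ℕ → ℕ → ℕ} {ok : ℕ → Bool} (P : EngOK E.n E.p D mu ok I) {As : List (ℕ × ℕ)}
    (h : ∀ A ∈ As, (ok A.2 && rowsT E.n E.w D (H58.getW mats A.1) A.2) = true) :
    Mod G E.n E.p D (As.map Prod.snd) := by
  refine ⟨(Units.coeHom _).comp ρ, fun g hg => hρ (Units.ext (hg.trans (by rw [map_one]; rfl))), fun A hA => ?_⟩
  obtain ⟨A, hA', rfl⟩ := List.mem_map.1 hA
  obtain ⟨g, hg⟩ := h1 A.1
  have h2 := h A hA'
  simp only [rowsT, Bool.and_eq_true, Bool.not_eq_true'] at h2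
  refine ⟨g, trivial, P.ok h2.1, ?_⟩
  ext a i
  rw [entOK_spec h2.2.2, transpose_apply, MonoidHom.comp_apply, hg, Units.coeHom_apply, H17.elM,
    H17.glOf_val (U.2 _), H17.lmat, H17.rmat, if_neg, of_apply, nth_eq]
  intro e
  rw [e] at h2
  exact absurd h2.2.1 (by decide)

end Cfsg.Agent.H63
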